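import Mathlib
import Cfsg.Agent.Lib.Helper5.Nse.Defs

/-!
# S4004 package [N] (helper25): the norm trick
-/

set_option autoImplicit false

universe u

namespace Cfsg.Agent.Lib.Helper25.Nse

open Cfsg.Agent.Lib.Helper5.Nse

theorem pow_inj_of_coprime {G : Type u} [Group G] {x y : G} {n i : ℕ} (hn : 1 < n)
    (hi : Nat.Coprime i n) (hx : x ^ n = 1) (hy : y ^ n = 1) (h : x ^ i = y ^ i) : x = y := by
  obtain ⟨a, -, ha⟩ := Nat.exists_mul_mod_eq_one_of_coprime hi hn
  have e1 : x = x ^ (i * a) := by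
    rw [pow_eq_pow_mod (i * a) hx, ha, pow_one]
  have e2 : y = y ^ (i * a) := by
    rw [pow_eq_pow_mod (i * a) hy, ha, pow_one]
  rw [e1, e2, pow_mul, pow_mul, h]

/-- package [N] -/
theorem pkgN : PkgN.{u} := by
  intro G _ _ A hAn hAcomm C t n hn h1 h2 h3 h4 v hv
  classical
  letI : CommGroup A := { (inferInstance : Group A) with
    mul_comm := fun a b => Subtype.ext (hAcomm a a.2 b b.2) }
  haveI : Fintype C := Fintype.ofFinite C
  let φ : G →* MulAut ↥A := MulAut.conjNormal
  have hφ : ∀ (g : G) (w : A), ((φ g w : A) : G) = g * w * g⁻¹ :=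
    fun g w => MulAut.conjNormal_apply g w
  have hexp : ∀ (g : G) (w : A) (k : ℕ),
      ((w : G) * g) ^ k = ((∏ i ∈ Finset.range k, φ (g ^ i) w : A) : G) * g ^ k := by
    intro g w k
    induction k with
    | zero => simp
    | succ k ih =>
      rw [pow_succ, ih, Finset.prod_range_succ, pow_succ, Subgroup.coe_mul, hφ]
      group
  obtain ⟨v', rfl⟩ : ∃ v' : A, (v' : G) = v := ⟨⟨v, hv⟩, rfl⟩
  have hT : ∀ c : C, ∏ i ∈ Finset.range n, φ (((c : G) * t) ^ i) v' = 1 := by
    intro c
    have h := hexp ((c : G) * t) v' n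
    rw [h2 c c.2, h3 c c.2 v' hv, mul_one] at h
    exact Subtype.ext h.symm
  have htot : ∏ c : C, ∏ i ∈ Finset.range n, φ (((c : G) * t) ^ i) v' = 1 :=
    Finset.prod_eq_one (fun c _ => hT c)
  rw [Finset.prod_comm] at htot
  obtain ⟨m, rfl⟩ : ∃ m, n = m + 1 := ⟨n - 1, by have := hn.pos; omega⟩
  rw [Finset.prod_range_succ'] at htot
  have hrest : ∀ k ∈ Finset.range m, ∏ c : C, φ (((c : G) * t) ^ (k + 1)) v' = 1 := by
    intro k hk
    rw [Finset.mem_range] at hk
    obtain ⟨i, hi⟩ : ∃ i, i = k + 1 := ⟨_, rfl⟩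
    rw [← hi]
    have hcop : Nat.Coprime i (m + 1) := by
      apply Nat.Coprime.symm
      rw [Nat.Prime.coprime_iff_not_dvd hn]
      intro hd
      have := Nat.le_of_dvd (by omega) hd
      omega
    let σ : C → C := fun c => ⟨((c : G) * t) ^ i * (t ^ i)⁻¹, by
      obtain ⟨c', hc', h⟩ := h1 c c.2 i
      rw [h, mul_inv_cancel_right]
      exact hc'⟩
    have hσ : ∀ c : C, ((c : G) * t) ^ i = (σ c : G) * t ^ i := by
      intro c
      simp [σ]
    have hσinj : Function.Injective σ := by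
      intro c c' hcc
      have h5 : ((c : G) * t) ^ i = ((c' : G) * t) ^ i := by
        rw [hσ c, hσ c', hcc]
      have h6 := pow_inj_of_coprime hn.one_lt hcop (h2 c c.2) (h2 c' c'.2) h5
      exact Subtype.ext (mul_right_cancel h6)
    have hσbij : Function.Bijective σ := Finite.injective_iff_bijective.mp hσinj
    obtain ⟨w, hw⟩ : ∃ w : A, w = φ (t ^ i) v' := ⟨_, rfl⟩
    have hterm : ∀ c : C, φ (((c : G) * t) ^ i) v' = φ (σ c : G) w := by
      intro c
      rw [hσ c, map_mul, MulAut.mul_apply, hw]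
    have hsum : ∏ c : C, φ (((c : G) * t) ^ i) v' = ∏ d : C, φ (d : G) w := by
      rw [← hσbij.prod_comp (fun d : C => φ (d : G) w)]
      exact Finset.prod_congr rfl (fun c _ => hterm c)
    rw [hsum]
    have hfix : ∀ c ∈ C, c * ((∏ d : C, φ (d : G) w : A) : G) * c⁻¹ =
        ((∏ d : C, φ (d : G) w : A) : G) := by
      intro c hc
      rw [← hφ, map_prod]
      congr 1
      rw [← (Equiv.mulLeft (⟨c, hc⟩ : C)).bijective.prod_comp (fun d : C => φ (d : G) w)]
      refine Finset.prod_congr rfl (fun d _ => ?_)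
      simp only [Equiv.coe_mulLeft, Subgroup.coe_mul, map_mul, MulAut.mul_apply]
    exact Subtype.ext (h4 _ (∏ d : C, φ (d : G) w : A).2 hfix)
  rw [Finset.prod_eq_one hrest, one_mul] at htot
  simp only [pow_zero, map_one, MulAut.one_apply, Finset.prod_const, Finset.card_univ] at htot
  rw [Nat.card_eq_fintype_card]
  have := congrArg (Subtype.val) htot
  simpa using this

end Cfsg.Agent.Lib.Helper25.Nse
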