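import Mathlib
import Cfsg.Agent.Lib.Helper5.Nse.Defs
import Cfsg.Agent.Lib.Helper4.A8.Solv

/-!
# S4004 package [STR] (helper25)

A finite solvable group all of whose elements have order `1`, `p` or `q` has a Frobenius
complement of prime order.
-/

set_option autoImplicit false

universe u

namespace Cfsg.Agent.Lib.Helper25.Nse

open Cfsg.Agent.Lib.Helper5.Nse

theorem no_commute {G : Type u} [Group G] {r s : ℕ} (hr : r.Prime) (hs : s.Prime) (hrs : r ≠ s)
    (hord : ∀ g : G, orderOf g = 1 ∨ orderOf g = r ∨ orderOf g = s) {x y : G}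
    (hx : orderOf x = r) (hy : orderOf y = s) (hc : Commute x y) : False := by
  have hcop : (orderOf x).Coprime (orderOf y) := by
    rw [hx, hy]
    exact (Nat.coprime_primes hr hs).mpr hrs
  have h := hc.orderOf_mul_eq_mul_orderOf_of_coprime hcop
  rw [hx, hy] at h
  have h2 := hr.two_le
  have h3 := hs.two_le
  rcases hord (x * y) with h1 | h1 | h1 <;> rw [h1] at h <;> nlinarith

theorem mul_pow_mem {G : Type u} [Group G] (A : Subgroup G) [hA : A.Normal] {v : G} (hv : v ∈ A)
    (g : G) (k : ℕ) : ∃ a ∈ A, (v * g) ^ k = a * g ^ k := by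
  induction k with
  | zero => exact ⟨1, A.one_mem, by simp⟩
  | succ k ih =>
    obtain ⟨a, ha, h⟩ := ih
    refine ⟨a * (g ^ k * v * (g ^ k)⁻¹), A.mul_mem ha (hA.conj_mem v hv _), ?_⟩
    rw [pow_succ, h, pow_succ]
    group

theorem pow_eq_one_of_order_s {G : Type u} [Group G] {r s : ℕ} (hr : r.Prime) (hs : s.Prime)
    (hrs : r ≠ s) (hord : ∀ g : G, orderOf g = 1 ∨ orderOf g = r ∨ orderOf g = s)
    (A : Subgroup G) [A.Normal] (hAr : ∀ a ∈ A, orderOf a = 1 ∨ orderOf a = r)
    {g v : G} (hg : orderOf g = s) (hv : v ∈ A) : (v * g) ^ s = 1 := by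
  rcases hord (v * g) with h | h | h
  · rw [orderOf_eq_one_iff.mp h, one_pow]
  · exfalso
    obtain ⟨a, ha, hk⟩ := mul_pow_mem A hv g r
    have h1 : (v * g) ^ r = 1 := by
      rw [← h]
      exact pow_orderOf_eq_one _
    rw [h1] at hk
    have hgr : g ^ r = a⁻¹ := eq_inv_of_mul_eq_one_right hk.symm
    have hgrA : g ^ r ∈ A := by
      rw [hgr]
      exact A.inv_mem ha
    have ho : orderOf (g ^ r) = s := by
      have hc : (orderOf g).Coprime r := by
        rw [hg]
        exact (Nat.coprime_primes hs hr).mpr (Ne.symm hrs)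
      rw [hc.orderOf_pow, hg]
    rcases hAr _ hgrA with h2 | h2
    · rw [ho] at h2
      exact hs.one_lt.ne' h2
    · rw [ho] at h2
      exact hrs h2.symm
  · rw [← h]
    exact pow_orderOf_eq_one _

theorem core (hN : PkgN.{u}) {G : Type u} [Group G] [Finite G] (r s : ℕ) (hr : r.Prime)
    (hs : s.Prime) (hrs : r ≠ s) (hsG : s ∣ Nat.card G)
    (hord : ∀ g : G, orderOf g = 1 ∨ orderOf g = r ∨ orderOf g = s)
    (A : Subgroup G) [hAn : A.Normal] (hA1 : A ≠ ⊥) (hAc : ∀ a ∈ A, ∀ b ∈ A, a * b = b * a)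
    (hAr : ∀ a ∈ A, orderOf a = 1 ∨ orderOf a = r) :
    ∃ C : Subgroup G, Cfsg.IsFrobeniusComplement C ∧ (Nat.card ↥C).Prime := by
  classical
  haveI : Fact s.Prime := ⟨hs⟩
  obtain ⟨S⟩ : Nonempty (Sylow s G) := inferInstance
  have hSord : ∀ g ∈ (S : Subgroup G), g ≠ 1 → orderOf g = s := by
    intro g hg hg1
    obtain ⟨k, hk⟩ := S.isPGroup' ⟨g, hg⟩
    have hk' : g ^ s ^ k = 1 := by
      have := congrArg Subtype.val hk
      simpa using this
    have hd : orderOf g ∣ s ^ k := orderOf_dvd_of_pow_eq_one hk'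
    rcases hord g with h | h | h
    · exact absurd (orderOf_eq_one_iff.mp h) hg1
    · rw [h] at hd
      exact absurd ((Nat.prime_dvd_prime_iff_eq hr hs).mp (hr.dvd_of_dvd_pow hd)) hrs
    · exact h
  have hSpow : ∀ g ∈ (S : Subgroup G), g ^ s = 1 := by
    intro g hg
    by_cases hg1 : g = 1
    · rw [hg1, one_pow]
    · rw [← hSord g hg hg1]
      exact pow_orderOf_eq_one g
  have hSbot : (S : Subgroup G) ≠ ⊥ := S.ne_bot_of_dvd_card hsG
  obtain ⟨y₀, hy₀S, hy₀1⟩ : ∃ y ∈ (S : Subgroup G), y ≠ 1 := by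
    by_contra h
    push Not at h
    exact hSbot ((Subgroup.eq_bot_iff_forall _).mpr h)
  have hy₀ord : orderOf y₀ = s := hSord y₀ hy₀S hy₀1
  obtain ⟨a₀, ha₀A, ha₀1⟩ : ∃ a ∈ A, a ≠ 1 := by
    by_contra h
    push Not at h
    exact hA1 ((Subgroup.eq_bot_iff_forall _).mpr h)
  have hAord : ∀ a ∈ A, a ≠ 1 → orderOf a = r := by
    intro a ha ha1
    rcases hAr a ha with h | h
    · exact absurd (orderOf_eq_one_iff.mp h) ha1
    · exact h
  have hAS : ∀ g ∈ A, g ∈ (S : Subgroup G) → g = 1 := by
    intro g hgA hgS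
    by_contra hg1
    exact hrs ((hAord g hgA hg1).symm.trans (hSord g hgS hg1))
  have hAexp : (∀ v ∈ A, v ^ s = 1) → False := by
    intro h
    have hd : orderOf a₀ ∣ s := orderOf_dvd_of_pow_eq_one (h a₀ ha₀A)
    rw [hAord a₀ ha₀A ha₀1] at hd
    exact hrs ((Nat.prime_dvd_prime_iff_eq hr hs).mp hd)
  have hfix : ∀ v ∈ A, ∀ y ∈ (S : Subgroup G), y ≠ 1 → y * v * y⁻¹ = v → v = 1 := by
    intro v hv y hy hy1 hyv
    by_contra hv1
    have hc : Commute v y := by
      have : y * v = v * y := by
        calc y * v = y * v * y⁻¹ * y := by group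
          _ = v * y := by rw [hyv]
      exact this.symm
    exact no_commute hr hs hrs hord (hAord v hv hv1) (hSord y hy hy1) hc
  have hnorm : ∀ x ∈ Subgroup.normalizer ((S : Subgroup G) : Set G), orderOf x = s →
      x ∈ (S : Subgroup G) := by
    intro x hx hxs
    have hP : IsPGroup s (Subgroup.zpowers x) := by
      apply IsPGroup.of_card (n := 1)
      rw [Nat.card_zpowers, hxs, pow_one]
    have h := hP.inf_normalizer_sylow S
    have hx' : x ∈ Subgroup.zpowers x ⊓ (S : Subgroup G) := by
      rw [← h]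
      exact ⟨Subgroup.mem_zpowers x, hx⟩
    exact hx'.2
  -- an element of order `r` normalizing `S`
  have hF4 : ∀ g : G, orderOf g = r → g ∈ Subgroup.normalizer ((S : Subgroup G) : Set G) →
      ∀ v ∈ A, (v * g) ^ r = 1 := by
    intro g hgord hgN v hv
    rcases hord (v * g) with h | h | h
    · rw [orderOf_eq_one_iff.mp h, one_pow]
    · rw [← h]
      exact pow_orderOf_eq_one _
    · exfalso
      obtain ⟨a, ha, hk⟩ := mul_pow_mem A hv g s
      have h1 : (v * g) ^ s = 1 := by
        rw [← h]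
        exact pow_orderOf_eq_one _
      rw [h1] at hk
      have hgs : g ^ s = a⁻¹ := eq_inv_of_mul_eq_one_right hk.symm
      have hgsA : g ^ s ∈ A := by
        rw [hgs]
        exact A.inv_mem ha
      obtain ⟨m, -, hm⟩ := Nat.exists_mul_mod_eq_one_of_coprime
        ((Nat.coprime_primes hs hr).mpr (Ne.symm hrs)) hr.one_lt
      have hgr1 : g ^ r = 1 := by
        rw [← hgord]
        exact pow_orderOf_eq_one g
      have hgA : g ∈ A := by
        have e : g = (g ^ s) ^ m := by
          rw [← pow_mul, pow_eq_pow_mod (s * m) hgr1, hm, pow_one]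
        rw [e]
        exact A.pow_mem hgsA m
      have hcomm : g * y₀ * g⁻¹ * y₀⁻¹ = 1 := by
        apply hAS
        · have e : g * y₀ * g⁻¹ * y₀⁻¹ = g * (y₀ * g⁻¹ * y₀⁻¹) := by group
          rw [e]
          exact A.mul_mem hgA (hAn.conj_mem g⁻¹ (A.inv_mem hgA) y₀)
        · exact (S : Subgroup G).mul_mem ((Subgroup.mem_normalizer_iff.mp hgN y₀).mp hy₀S)
            ((S : Subgroup G).inv_mem hy₀S)
      have hc : Commute g y₀ := by
        have : g * y₀ = y₀ * g := by
          calc g * y₀ = (g * y₀ * g⁻¹ * y₀⁻¹) * (y₀ * g) := by group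
            _ = y₀ * g := by rw [hcomm, one_mul]
        exact this
      exact no_commute hr hs hrs hord hgord hy₀ord hc
  -- (b) `|S| = s`
  have hScard : Nat.card (S : Subgroup G) = s := by
    by_contra hne
    haveI : Nontrivial (S : Subgroup G) := (Subgroup.nontrivial_iff_ne_bot _).mpr hSbot
    haveI := S.isPGroup'.center_nontrivial
    obtain ⟨z', hz'1⟩ := exists_ne (1 : Subgroup.center (S : Subgroup G))
    obtain ⟨z, hzdef⟩ : ∃ z : G, z = ((z' : (S : Subgroup G)) : G) := ⟨_, rfl⟩
    have hzS : z ∈ (S : Subgroup G) := by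
      rw [hzdef]
      exact (z' : (S : Subgroup G)).2
    have hz1 : z ≠ 1 := by
      intro h
      apply hz'1
      apply Subtype.ext
      apply Subtype.ext
      rw [← hzdef, h]
      rfl
    have hzc : ∀ y ∈ (S : Subgroup G), z * y = y * z := by
      intro y hy
      have h2 := Subgroup.mem_center_iff.mp z'.2 ⟨y, hy⟩
      have h3 := congrArg Subtype.val h2
      rw [hzdef]
      simpa using h3.symm
    have hzord : orderOf z = s := hSord z hzS hz1
    obtain ⟨y, hyS, hyz⟩ : ∃ y ∈ (S : Subgroup G), y ∉ Subgroup.zpowers z := by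
      by_contra h
      push Not at h
      apply hne
      have hle : (S : Subgroup G) ≤ Subgroup.zpowers z := h
      have hge : Subgroup.zpowers z ≤ (S : Subgroup G) := by
        rw [Subgroup.zpowers_le]
        exact hzS
      rw [le_antisymm hle hge, Nat.card_zpowers, hzord]
    have hzpc : ∀ c ∈ Subgroup.zpowers z, ∀ y ∈ (S : Subgroup G), Commute c y := by
      intro c hc y hy
      obtain ⟨k, rfl⟩ := Subgroup.mem_zpowers_iff.mp hc
      exact (show Commute z y from hzc y hy).zpow_left k
    have hzpS : ∀ c ∈ Subgroup.zpowers z, c ∈ (S : Subgroup G) := by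
      intro c hc
      exact (Subgroup.zpowers_le.mpr hzS) hc
    have key := hN A hAc (Subgroup.zpowers z) y s hs ?_ ?_ ?_ ?_
    · apply hAexp
      intro v hv
      have := key v hv
      rwa [Nat.card_zpowers, hzord] at this
    · intro c hc i
      exact ⟨c ^ i, Subgroup.pow_mem _ hc i, (hzpc c hc y hyS).mul_pow i⟩
    · intro c hc
      exact hSpow _ ((S : Subgroup G).mul_mem (hzpS c hc) hyS)
    · intro c hc v hv
      have hg1 : c * y ≠ 1 := by
        intro h
        apply hyz
        have : y = c⁻¹ := eq_inv_of_mul_eq_one_right h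
        rw [this]
        exact Subgroup.inv_mem _ hc
      have hgord : orderOf (c * y) = s :=
        hSord _ ((S : Subgroup G).mul_mem (hzpS c hc) hyS) hg1
      exact pow_eq_one_of_order_s hr hs hrs hord A hAr hgord hv
    · intro v hv hfixv
      exact hfix v hv z hzS hz1 (hfixv z (Subgroup.mem_zpowers z))
  -- (c) `N(S) = S`
  have hNS : ∀ x ∈ Subgroup.normalizer ((S : Subgroup G) : Set G), x ∈ (S : Subgroup G) := by
    intro x hxN
    by_contra hxS
    have hcx : ∀ c ∈ (S : Subgroup G), orderOf (c * x) = r := by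
      intro c hc
      have hcxN : c * x ∈ Subgroup.normalizer ((S : Subgroup G) : Set G) :=
        Subgroup.mul_mem _ (Subgroup.le_normalizer hc) hxN
      have hcxS : c * x ∉ (S : Subgroup G) := by
        intro h
        apply hxS
        have : x = c⁻¹ * (c * x) := by group
        rw [this]
        exact (S : Subgroup G).mul_mem ((S : Subgroup G).inv_mem hc) h
      rcases hord (c * x) with h | h | h
      · exfalso
        apply hcxS
        rw [orderOf_eq_one_iff.mp h]
        exact (S : Subgroup G).one_mem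
      · exact h
      · exact absurd (hnorm _ hcxN h) hcxS
    have key := hN A hAc (S : Subgroup G) x r hr ?_ ?_ ?_ ?_
    · apply hAexp
      intro v hv
      have := key v hv
      rwa [hScard] at this
    · intro c hc i
      induction i with
      | zero => exact ⟨1, (S : Subgroup G).one_mem, by simp⟩
      | succ i ih =>
        obtain ⟨c', hc', h⟩ := ih
        have hxi : x ^ i ∈ Subgroup.normalizer ((S : Subgroup G) : Set G) :=
          Subgroup.pow_mem _ hxN i
        refine ⟨c' * (x ^ i * c * (x ^ i)⁻¹),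
          (S : Subgroup G).mul_mem hc' ((Subgroup.mem_normalizer_iff.mp hxi c).mp hc), ?_⟩
        rw [pow_succ, h, pow_succ]
        group
    · intro c hc
      rw [← hcx c hc]
      exact pow_orderOf_eq_one _
    · intro c hc v hv
      exact hF4 (c * x) (hcx c hc) (Subgroup.mul_mem _ (Subgroup.le_normalizer hc) hxN) v hv
    · intro v hv hfixv
      exact hfix v hv y₀ hy₀S hy₀1 (hfixv y₀ hy₀S)
  -- (d)
  have hzp : ∀ k ∈ (S : Subgroup G), k ≠ 1 → Subgroup.zpowers k = (S : Subgroup G) := by
    intro k hk hk1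
    apply Subgroup.eq_of_le_of_card_ge (Subgroup.zpowers_le.mpr hk)
    rw [Nat.card_zpowers, hSord k hk hk1, hScard]
  refine ⟨(S : Subgroup G), ⟨hSbot, ?_, ?_⟩, by rw [hScard]; exact hs⟩
  · intro htop
    apply ha₀1
    exact hAS a₀ ha₀A (by rw [htop]; exact Subgroup.mem_top _)
  · intro g hg
    rw [Subgroup.eq_bot_iff_forall]
    intro h hh
    obtain ⟨hhS, hhg⟩ := Subgroup.mem_inf.mp hh
    by_contra hh1
    apply hg
    apply hNS
    rw [Subgroup.mem_pointwise_smul_iff_inv_smul_mem] at hhg
    have hh' : g⁻¹ * h * g ∈ (S : Subgroup G) := by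
      simpa [MulAut.smul_def] using hhg
    obtain ⟨h', hh'def⟩ : ∃ h' : G, h' = g⁻¹ * h * g := ⟨_, rfl⟩
    rw [← hh'def] at hh'
    have hconj : h = g * h' * g⁻¹ := by
      rw [hh'def]
      group
    have hh'1 : h' ≠ 1 := by
      intro e
      apply hh1
      rw [hconj, e]
      group
    rw [Subgroup.mem_normalizer_iff]
    intro k
    constructor
    · intro hk
      rw [← hzp h' hh' hh'1] at hk
      obtain ⟨j, rfl⟩ := Subgroup.mem_zpowers_iff.mp hk
      have e : g * h' ^ j * g⁻¹ = h ^ j := by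
        rw [hconj, conj_zpow]
      rw [e]
      exact Subgroup.zpow_mem _ hhS j
    · intro hk
      rw [← hzp h hhS hh1] at hk
      obtain ⟨j, hj⟩ := Subgroup.mem_zpowers_iff.mp hk
      have e : k = h' ^ j := by
        have e1 : h' = g⁻¹ * h * (g⁻¹)⁻¹ := by
          rw [hh'def]
          group
        rw [e1, conj_zpow, hj]
        group
      rw [e]
      exact Subgroup.zpow_mem _ hh' j

/-- package [STR] -/
theorem pkgStr_of (hN : PkgN.{u}) : PkgStr.{u} := by
  intro G _ _ hsolv p q hp hq hpq hpG hqG hord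
  haveI : Group.IsSolvable G := hsolv
  haveI : Nontrivial G := by
    apply Finite.one_lt_card_iff_nontrivial.mp
    have h1 := Nat.le_of_dvd Nat.card_pos hpG
    have h2 := hp.two_le
    omega
  obtain ⟨A, hAn, hA1, hAc⟩ := Cfsg.Agent.Lib.Helper4.A8.exists_abelian_normal (G := G)
  obtain ⟨a₀, ha₀A, ha₀1⟩ : ∃ a ∈ A, a ≠ 1 := by
    by_contra h
    push Not at h
    exact hA1 ((Subgroup.eq_bot_iff_forall _).mpr h)
  rcases hord a₀ with h | h | h
  · exact absurd (orderOf_eq_one_iff.mp h) ha₀1
  · refine core hN p q hp hq hpq hqG hord A hA1 hAc ?_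
    intro b hb
    rcases hord b with h' | h' | h'
    · left; exact h'
    · right; exact h'
    · exfalso
      exact no_commute hp hq hpq hord h h' (hAc a₀ ha₀A b hb)
  · have hord' : ∀ g : G, orderOf g = 1 ∨ orderOf g = q ∨ orderOf g = p := fun g => by
      rcases hord g with h' | h' | h'
      · left; exact h'
      · right; right; exact h'
      · right; left; exact h'
    refine core hN q p hq hp (Ne.symm hpq) hpG hord' A hA1 hAc ?_
    intro b hb
    rcases hord b with h' | h' | h'
    · left; exact h'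
    · exfalso
      exact no_commute hq hp (Ne.symm hpq) hord' h h' (hAc a₀ ha₀A b hb)
    · right; exact h'

end Cfsg.Agent.Lib.Helper25.Nse
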